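import Mathlib
import Cfsg.Agent.Base
import Cfsg.Agent.Lib.FGS83.LieLCS
import Cfsg.Agent.Lib.Core.Frattini
import Cfsg.Agent.Lib.PGroup.Basic

/-!
# Automorphisms of order `p` with few fixed points (helper83)
-/

set_option autoImplicit false

namespace H83

open Subgroup Krek

universe u

theorem card_le_of_imp {X Y : Type*} [Finite Y] {P : X → Prop} {Q : Y → Prop} (f : X → Y)
    (hf : Function.Injective f) (h : ∀ x, P x → Q (f x)) :
    Nat.card {x // P x} ≤ Nat.card {y // Q y} :=
  Nat.card_le_card_of_injective (fun x => ⟨f x.1, h _ x.2⟩)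
    (fun _ _ e => Subtype.ext (hf (Subtype.mk.inj e)))

theorem card_ker_pow_le {W : Type*} [AddCommGroup W] [Finite W] (β : Module.End ℤ W) (k : ℕ) :
    Nat.card {w // (β ^ k) w = 0} ≤ Nat.card {w // β w = 0} ^ k := by
  induction k with
  | zero =>
    rw [pow_zero, pow_zero, Finite.card_le_one_iff_subsingleton]
    exact ⟨fun a b => Subtype.ext ((a.2 : a.1 = 0).trans (b.2 : b.1 = 0).symm)⟩
  | succ k ih =>
    let K : AddSubgroup W := (β ^ (k + 1)).toAddMonoidHom.ker
    let f : K →+ W := β.toAddMonoidHom.comp K.subtype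
    have h1 := AddSubgroup.card_eq_card_quotient_mul_card_addSubgroup f.ker
    rw [Nat.card_congr (QuotientAddGroup.quotientKerEquivRange f).toEquiv] at h1
    have h2 : Nat.card f.range ≤ Nat.card {w // (β ^ k) w = 0} :=
      card_le_of_imp id Function.injective_id (by
        rintro _ ⟨y, rfl⟩
        exact y.2)
    have h3 : Nat.card f.ker ≤ Nat.card {w // β w = 0} :=
      card_le_of_imp (P := fun x : K => x ∈ f.ker) Subtype.val Subtype.val_injective
        (fun _ h => h)
    change Nat.card K ≤ _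
    rw [h1, pow_succ]
    exact Nat.mul_le_mul (h2.trans ih) h3

theorem card_torsion_le {W : Type*} [CommGroup W] [Finite W] (γ : W →* W) {p : ℕ} (hp : p.Prime)
    (hγ : ∀ w, γ^[p] w = w) : Nat.card {w : W // w ^ p = 1} ≤ Nat.card {w // γ w = w} ^ p := by
  let g : Module.End ℤ (Additive W) := (MonoidHom.toAdditive γ).toIntLinearMap
  have hg : g ^ p = 1 := by
    apply LinearMap.ext
    intro w
    rw [Module.End.pow_apply]
    exact hγ w
  obtain ⟨r, hr⟩ := (Commute.one_right (g - 1)).exists_add_pow_prime_eq hp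
  rw [sub_add_cancel, hg, one_pow] at hr
  have h1 : (g - 1) ^ p = -((g - 1) * 1 * r) * p := by
    rw [← Nat.cast_comm]
    generalize (g - 1) ^ p = X at hr ⊢
    generalize g - 1 = Y at hr ⊢
    rw [mul_neg, eq_neg_iff_add_eq_zero, ← add_left_inj 1, zero_add]
    nth_rewrite 3 [hr]
    noncomm_ring
  have h2 := card_ker_pow_le (g - 1) p
  refine le_trans ?_ (h2.trans (Nat.pow_le_pow_left ?_ p))
  · refine card_le_of_imp Additive.ofMul Additive.ofMul.injective fun x hx => ?_
    rw [h1, Module.End.mul_apply, Module.End.natCast_apply, ← ofMul_pow, hx, ofMul_one, map_zero]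
  · exact card_le_of_imp Additive.toMul Additive.toMul.injective fun x hx =>
      congrArg Additive.toMul (sub_eq_zero.1 (hx : g x - x = 0))

theorem card_le_torsion_pow {W : Type*} [CommGroup W] [Finite W] {p e : ℕ}
    (h : ∀ w : W, w ^ p ^ e = 1) : Nat.card W ≤ Nat.card {w : W // w ^ p = 1} ^ e := by
  have h2 := card_ker_pow_le (W := Additive W) (p : Module.End ℤ (Additive W)) e
  refine le_trans ?_ h2
  refine Nat.card_le_card_of_injective (fun x => ⟨Additive.ofMul x, ?_⟩)
    (fun a b h => Subtype.mk.inj h)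
  rw [← Nat.cast_pow, Module.End.natCast_apply, ← ofMul_pow, h, ofMul_one]

variable {G : Type u} [Group G]

theorem mulAut_iterate (α : MulAut G) (k : ℕ) (w : G) : (⇑α)^[k] w = (α ^ k) w := by
  induction k with
  | zero => rfl
  | succ k ih => rw [Function.iterate_succ_apply', ih, pow_succ', MulAut.mul_apply]

theorem card_fix_mod_le [Finite G] (α : G →* G) (N : Subgroup G) :
    Nat.card {g // g⁻¹ * α g ∈ N} ≤ Nat.card {g // α g = g} * Nat.card N := by
  classical
  have : Nonempty {g // g⁻¹ * α g ∈ N} := ⟨⟨1, by simp⟩⟩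
  let f : {g // g⁻¹ * α g ∈ N} → N := fun g => ⟨_, g.2⟩
  rw [← Nat.card_prod]
  refine Nat.card_le_card_of_injective
    (fun g => (⟨g * ((Function.invFun f (f g) : {g // g⁻¹ * α g ∈ N}) : G)⁻¹, ?_⟩, f g)) ?_
  · have h1 : f (Function.invFun f (f g)) = f g := Function.invFun_eq ⟨g, rfl⟩
    have h2 := congrArg Subtype.val h1
    dsimp only [f] at h2
    rw [map_mul, map_inv]
    generalize ((Function.invFun f (f g) : {g // g⁻¹ * α g ∈ N}) : G) = s at h2 ⊢
    rw [inv_mul_eq_iff_eq_mul] at h2
    rw [h2]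
    group
  · intro a b h
    rw [Prod.mk.injEq] at h
    have h1 := congrArg Subtype.val h.1
    dsimp only at h1
    rw [h.2, mul_left_inj] at h1
    exact Subtype.ext h1

theorem card_fix_quot_le [Finite G] (α : G →* G) {Q : Type*}
    [Group Q] (π : G →* Q) (hπ : Function.Surjective π) (β : Q → Q) (h : ∀ g, β (π g) = π (α g)) :
    Nat.card {q // β q = q} ≤ Nat.card {g // α g = g} := by
  have h1 := card_fix_mod_le α π.ker
  have h2 : Nat.card {q // β q = q} * Nat.card π.ker ≤ Nat.card {g // g⁻¹ * α g ∈ π.ker} := by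
    rw [← Nat.card_prod]
    refine Nat.card_le_card_of_injective
      (fun x => ⟨Function.surjInv hπ x.1.1 * x.2.1, ?_⟩) ?_
    · rw [MonoidHom.mem_ker, map_mul, ← h, map_inv, map_mul, x.2.2, Function.surjInv_eq hπ,
        mul_one, x.1.2, inv_mul_cancel]
    · intro a b e
      have e1 := congrArg Subtype.val e
      dsimp only at e1
      have e2 := congrArg π e1
      rw [map_mul, map_mul, a.2.2, b.2.2, Function.surjInv_eq hπ, Function.surjInv_eq hπ,
        mul_one, mul_one] at e2
      rw [e2, mul_right_inj] at e1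
      exact Prod.ext (Subtype.ext e2) (Subtype.ext e1)
  exact Nat.le_of_mul_le_mul_right (h2.trans h1) Nat.card_pos

/-- iterated commutators with the whole group -/
def itc (M : Subgroup G) : ℕ → Subgroup G
  | 0 => M
  | k + 1 => ⁅itc M k, ⊤⁆

instance itc_normal (M : Subgroup G) [M.Normal] (k : ℕ) : (itc M k).Normal := by
  induction k with
  | zero => assumption
  | succ k ih => rw [itc]; infer_instance

theorem itc_succ' (M : Subgroup G) (k : ℕ) : itc ⁅M, ⊤⁆ k = itc M (k + 1) := by
  induction k with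
  | zero => rfl
  | succ k ih => rw [itc, ih]; rfl

theorem commutator_lc_le (k : ℕ) : ∀ (M : Subgroup G) [M.Normal], ⁅M, lc G k⁆ ≤ itc M (k + 1) := by
  induction k with
  | zero => exact fun _ _ => le_rfl
  | succ k ih =>
    intro M _
    rw [commutator_comm]
    refine H2.three_subgroups_le_of_normal (H₁ := lc G k) (H₂ := ⊤) ?_ ?_
    · rw [commutator_comm ⊤ M, ← itc_succ']
      exact ih _
    · exact commutator_mono (ih M) le_rfl

theorem card_itc_le [Finite G] {p : ℕ} [hp : Fact p.Prime] (hG : IsPGroup p G) (M : Subgroup G)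
    [M.Normal] (k : ℕ) (h : itc M k ≠ ⊥) : Nat.card (itc M k) * p ^ k ≤ Nat.card M := by
  have := hG.isNilpotent
  induction k with
  | zero => rw [pow_zero, mul_one]; exact le_rfl
  | succ k ih =>
    have h1 : itc M k ≠ ⊥ := fun e => h (by rw [itc, e, commutator_bot_left])
    have h2 := H5.commutator_top_lt_of_nilpotent (itc M k) h1
    obtain ⟨L, -, h3, h4, h5, -⟩ := H5.exists_normal_cover hG h2
    refine le_trans ?_ (ih h1)
    rw [pow_succ', ← mul_assoc]
    exact Nat.mul_le_mul_right _ (h5 ▸ card_le_of_le h4)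

theorem pow_le_relIndex [Finite G] {p : ℕ} [hp : Fact p.Prime] (hG : IsPGroup p G)
    (M N : Subgroup G) [M.Normal] [N.Normal] (k : ℕ) (hN : N ≤ lc G k) (h : ⁅M, N⁆ ≠ ⊥) :
    p ^ (k + 1) ≤ ⁅M, N⁆.relIndex M := by
  have h1 : ⁅M, N⁆ ≤ itc M (k + 1) := (commutator_mono le_rfl hN).trans (commutator_lc_le k M)
  have h2 := card_itc_le hG M (k + 1) (fun e => h (eq_bot_iff.2 (e ▸ h1)))
  have h3 := H1.card_mul_relIndex_of_le (commutator_le_left M N)
  rw [← h3] at h2
  exact Nat.le_of_mul_le_mul_left ((Nat.mul_le_mul_right _ (card_le_of_le h1)).trans h2)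
    Nat.card_pos

theorem derivedSeries_add {G' G'' : Type*} [Group G'] [Group G''] (f : G' →* G) (g : G →* G'')
    (hfg : g.ker ≤ f.range) {a b : ℕ} (ha : derivedSeries G'' a = ⊥) (hb : derivedSeries G' b = ⊥) :
    derivedSeries G (a + b) = ⊥ := by
  have h : ∀ m, derivedSeries G (a + m) ≤ (derivedSeries G' m).map f := by
    intro m
    induction m with
    | zero =>
      rw [add_zero, derivedSeries_zero, ← MonoidHom.range_eq_map]
      refine le_trans ?_ hfg
      rw [← Subgroup.map_eq_bot_iff, eq_bot_iff, ← ha]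
      exact map_derivedSeries_le_derivedSeries g a
    | succ m ih =>
      rw [← add_assoc, derivedSeries_succ, derivedSeries_succ, map_commutator]
      exact commutator_mono ih ih
  rw [eq_bot_iff]
  simpa [hb] using h b

theorem derivedSeries_le_lc (k : ℕ) : derivedSeries G k ≤ lc G k := by
  induction k with
  | zero => exact le_rfl
  | succ k ih => exact commutator_mono ih le_top

theorem derivedSeries_eq_bot_of_card_le [Finite G] (hG : Group.IsSolvable G) {N : ℕ}
    (h : Nat.card G ≤ N) : derivedSeries G N = ⊥ := by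
  have key : ∀ k, derivedSeries G k = ⊥ ∨ Nat.card (derivedSeries G k) + k ≤ Nat.card G := by
    intro k
    induction k with
    | zero => right; simp
    | succ k ih =>
      by_cases h0 : derivedSeries G k = ⊥
      · left; rw [derivedSeries_succ, h0, commutator_bot_left]
      · right
        have h1 := H1.card_lt_of_lt (Group.IsSolvable.commutator_lt_of_ne_bot h0)
        rw [← derivedSeries_succ] at h1
        have := ih.resolve_left h0
        omega
  rcases key N with h1 | h1
  · exact h1
  · have := (Nat.card_pos : 0 < Nat.card (derivedSeries G N))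
    omega

theorem pow_mem_of_card_fix_le [Finite G] {p : ℕ} [hp : Fact p.Prime] (hG : IsPGroup p G)
    (α : MulAut G) {n : ℕ} (h : Nat.card {g // α g = g} ≤ p ^ n) (N : Subgroup G) [N.Normal]
    (hN : ∀ x ∈ N, α x ∈ N) {g : G} (hg : g⁻¹ * α g ∈ N) : g ^ p ^ n ∈ N := by
  let β : G ⧸ N →* G ⧸ N := QuotientGroup.map N N (α : G →* G) hN
  have h1 := card_fix_quot_le (α : G →* G) (QuotientGroup.mk' N) (QuotientGroup.mk'_surjective N)
    β (fun _ => rfl)
  let U : Subgroup (G ⧸ N) := β.eqLocus (MonoidHom.id _)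
  obtain ⟨k, hk⟩ := ((hG.to_quotient N).to_subgroup U).exists_card_eq
  have h2 : p ^ k ≤ p ^ n := hk ▸ h1.trans h
  have h3 : (g : G ⧸ N) ∈ U := (QuotientGroup.eq.2 hg).symm
  have h4 := congrArg Subtype.val (pow_card_eq_one' (x := (⟨g, h3⟩ : U)))
  rw [hk] at h4
  rw [← QuotientGroup.eq_one_iff, QuotientGroup.mk_pow]
  obtain ⟨j, rfl⟩ := Nat.exists_eq_add_of_le ((Nat.pow_le_pow_iff_right hp.out.one_lt).1 h2)
  rw [pow_add, pow_mul, show (g : G ⧸ N) ^ p ^ k = 1 from h4, one_pow]

theorem relIndex_lc_le [Finite G] {p : ℕ} [hp : Fact p.Prime] (hG : IsPGroup p G)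
    (α : MulAut G) (hα : α ^ p = 1) {n : ℕ} (h : Nat.card {g // α g = g} ≤ p ^ n) (c : ℕ)
    (hc : ∀ (L' : Type u) [LieRing L'] (M : ZMod p → AddSubgroup L'), Closed M → M 0 = ⊥ →
      it (⨆ t, M t) (⨆ t, M t) c = ⊥) :
    (lc G (c + 1)).relIndex (lc G c) ≤ p ^ (n * p * ((n + 1) * (c + 1))) := by
  have h1 := pow_mem_lc_succ α hα (p ^ n)
    (fun i g _ hg => pow_mem_of_card_fix_le hG α h _ (fun x hx => aut_mem_lc α hx) hg) c hc
  have : Finite (Sec G c) := Finite.of_surjective _ (secMk_surjective c)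
  let γ : Sec G c →* Sec G c := MonoidHom.toAdditive.symm (secAut α c)
  let α' : lc G c →* lc G c :=
    (α.toMonoidHom.comp (lc G c).subtype).codRestrict (lc G c) fun g => aut_mem_lc α g.2
  have hγ : ∀ g, γ (secMk c g) = secMk c (α' g) := fun _ => rfl
  have h2 : Nat.card {w // γ w = w} ≤ p ^ n :=
    (card_fix_quot_le α' (secMk c) (secMk_surjective c) γ hγ).trans
      ((card_le_of_imp (P := fun g => α' g = g) (Q := fun g => α g = g)
        Subtype.val Subtype.val_injective (fun x hx => congrArg Subtype.val hx)).trans h)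
  have h3 := card_torsion_le γ hp.out (fun w => by
    obtain ⟨g, rfl⟩ := secMk_surjective c w
    have : ∀ k, γ^[k] (secMk c g) = secMk c ⟨(α ^ k) g, aut_mem_lc _ g.2⟩ := by
      intro k
      induction k with
      | zero => rfl
      | succ k ih => rw [Function.iterate_succ_apply', ih, hγ, pow_succ']; rfl
    rw [this]
    congr 1
    apply Subtype.ext
    change (α ^ p) g = g
    rw [hα, MulAut.one_apply])
  have h4 := card_le_torsion_pow (W := Sec G c) (p := p) (e := (n + 1) * (c + 1)) (fun w => by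
    obtain ⟨g, rfl⟩ := secMk_surjective c w
    rw [← map_pow, secMk_eq_one, pow_mul, pow_succ p n]
    exact h1 g g.2)
  change Nat.card (Sec G c) ≤ _
  rw [pow_mul, pow_mul p n p]
  exact h4.trans (Nat.pow_le_pow_left (h3.trans (Nat.pow_le_pow_left h2 _)) _)

end H83
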